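import Cfsg.Agent.RadicalLThree.Shape

/-!
# There is no element of order eight in the radical
-/

set_option autoImplicit false
set_option linter.all false

namespace Cfsg.Agent.RadicalLThree

universe u v w

open scoped commutatorElement

lemma exists_fourth : ∀ x y : V3, ∃ t : V3, t ≠ 0 ∧ t ≠ x ∧ t ≠ y ∧ t ≠ x + y := by decide

lemma mur_fix : ∀ t : V3, t 0 = 0 → t 1 = 0 → mur.mulVec t = t := by decide

variable {L : Type v} [Group L] [Finite L] [IsSimpleGroup L] {Y : Type u} [Group Y] [Finite Y]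
  {Y₂ : Type w} [Group Y₂] [Finite Y₂]

/-- A second layer over a first layer of order two is trivial. -/
theorem no_long (hL : Nat.card L = 168) (h4 : SectionalPRankLE 2 4 Y) (f : Y →* Y₂)
    (hf : Function.Surjective f) (C : Cfg L Y₂) (hQ : IsPGroup 2 (C.π.comp f).ker)
    (hZc : ∀ z ∈ f.ker, ∀ q, C.π (f q) = 1 → z * q = q * z) (hZ2 : ∀ z ∈ f.ker, z * z = 1)
    (hgen : f.ker ≤ Subgroup.closure ({x | ∃ a, f a ∈ C.A ∧ x = a * a} ∪
      {x | ∃ q, C.π (f q) = 1 ∧ ∃ a, f a ∈ C.A ∧ x = ⁅q, a⁆}))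
    (H : Hyp C.ρ) (h16 : Nat.card C.V = 16) (hB : ∀ x y, C.B x y = 0)
    (hq : ∀ v, C.q v = 0 ↔ v ∈ H.D) (hA : Nat.card C.A = 2) : f.ker = ⊥ := by
  classical
  by_contra hZne
  let π : Y →* L := C.π.comp f
  have hπ : Function.Surjective π := C.hπ.comp hf
  obtain ⟨d⟩ := H.exists_nat3 hL C.ρ C.V2 h16 C.ρ_nt
  have hidx : H.D.index = 2 := by
    have := H.D.card_mul_index
    rw [H.card, h16] at this; omega
  have hR2 : ∀ y : Y₂, y ∈ C.pre H.D ↔ C.π y = 1 ∧ y * y = 1 := fun y => by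
    constructor
    · rintro ⟨hy, dy⟩
      exact ⟨hy, (C.q_cls_eq_zero ⟨y, hy⟩).1 ((hq _).2 dy)⟩
    · rintro ⟨hy, yy⟩
      exact ⟨hy, (hq _).1 ((C.q_cls_eq_zero ⟨y, hy⟩).2 yy)⟩
  haveI : (C.pre H.D).Normal := C.pre_normal H.inv
  let R : Subgroup Y := (C.pre H.D).comap f
  haveI hRn : R.Normal := Subgroup.Normal.comap inferInstance f
  have memR : ∀ y, y ∈ R ↔ f y ∈ C.pre H.D := fun y => Iff.rfl
  have RQ : ∀ {y}, y ∈ R → π y = 1 := fun {y} hy => C.pre_le _ hy
  have hRidx : ∀ x, π x = 1 → ∀ y, π y = 1 → x ∉ R → y ∉ R → x * y ∈ R := fun x hx y hy nx ny => by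
    rw [memR, map_mul]; exact C.pre_idx hidx _ hx _ hy nx ny
  have AR : ∀ {y}, f y ∈ C.A → y ∈ R := fun {y} hy => (hR2 _).2 ⟨C.le hy, C.A2 _ hy⟩
  -- a generator outside
  obtain ⟨c, hcQ, hcR⟩ : ∃ c, π c = 1 ∧ c ∉ R := by
    by_contra h
    push Not at h
    have htop : H.D = ⊤ := eq_top_iff.2 fun v _ => by
      obtain ⟨⟨x, hx⟩, rfl⟩ := C.cls_surjective v
      obtain ⟨y, rfl⟩ := hf x
      exact (C.mem_pre hx).1 (h y hx)
    rw [htop, AddSubgroup.index_top] at hidx
    omega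
  have hcc1 : f (c * c) ≠ 1 := fun e => hcR ((hR2 _).2 ⟨hcQ, by rw [← map_mul]; exact e⟩)
  have hccA : f (c * c) ∈ C.A := by rw [map_mul]; exact C.sq _ hcQ
  have hA2 : ∀ a ∈ C.A, a = 1 ∨ a = f (c * c) := by
    intro a ha
    by_contra h
    push Not at h
    have h3 : 3 ≤ Nat.card C.A := by
      refine le_trans (Nat.card_fin 3).ge (Nat.card_le_card_of_injective
        (![(1 : C.A), ⟨a, ha⟩, ⟨_, hccA⟩]) ?_)
      intro i j e
      fin_cases i <;> fin_cases j <;>
        first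
          | rfl
          | exact absurd (congrArg Subtype.val e).symm h.1
          | exact absurd (congrArg Subtype.val e) h.1
          | exact absurd (congrArg Subtype.val e).symm h.2
          | exact absurd (congrArg Subtype.val e) h.2
          | exact absurd (congrArg Subtype.val e).symm hcc1
          | exact absurd (congrArg Subtype.val e) hcc1
    omega
  -- commutators
  have hcomm : ∀ x y, π x = 1 → π y = 1 → ⁅x, y⁆ ∈ f.ker := fun x y hx hy => by
    rw [MonoidHom.mem_ker, map_commutatorElement, commutatorElement_eq_one_iff_mul_comm]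
    exact C.comm_of_B hB _ hx _ hy
  have hbl : ∀ x y t, π x = 1 → π y = 1 → π t = 1 → ⁅x * y, t⁆ = ⁅x, t⁆ * ⁅y, t⁆ := by
    intro x y t hx hy ht
    calc ⁅x * y, t⁆ = x * ⁅y, t⁆ * x⁻¹ * ⁅x, t⁆ := by simp only [commutatorElement_def]; group
      _ = ⁅y, t⁆ * ⁅x, t⁆ := by rw [← hZc _ (hcomm y t hy ht) x hx, mul_inv_cancel_right]
      _ = ⁅x, t⁆ * ⁅y, t⁆ := hZc _ (hcomm y t hy ht) _ (show π ⁅x, t⁆ = 1 by
            rw [map_commutatorElement, hx, commutatorElement_one_left])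
  have hzi : ∀ z ∈ f.ker, z⁻¹ = z := fun z hz => inv_eq_of_mul_eq_one_right (hZ2 z hz)
  have hsymm : ∀ x y, π x = 1 → π y = 1 → ⁅x, y⁆ = ⁅y, x⁆ := fun x y hx hy => by
    rw [← commutatorElement_inv, hzi _ (hcomm y x hy hx)]
  have hA'c : ∀ a, f a ∈ C.A → ∀ x, π x = 1 → a * x = x * a := by
    intro a ha x hx
    rcases hA2 _ ha with h | h
    · exact hZc a h x hx
    · have hz : (c * c)⁻¹ * a ∈ f.ker := by
        rw [MonoidHom.mem_ker, map_mul, map_inv, h, inv_mul_cancel]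
      have e : c * c * x = x * (c * c) := by
        rw [← commutatorElement_eq_one_iff_mul_comm, hbl c c x hcQ hcQ hx, hZ2 _ (hcomm c x hcQ hx)]
      calc a * x = c * c * ((c * c)⁻¹ * a * x) := by group
        _ = c * c * (x * ((c * c)⁻¹ * a)) := by rw [hZc _ hz x hx]
        _ = c * c * x * ((c * c)⁻¹ * a) := by group
        _ = x * a := by rw [e]; group
  -- the kernel has order two
  set c4 := c * c * (c * c) with hc4
  have hc4Z : c4 ∈ f.ker := by rw [MonoidHom.mem_ker, hc4, map_mul]; exact C.A2 _ hccA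
  have hZ : ∀ z ∈ f.ker, z = 1 ∨ z = c4 := by
    let K : Subgroup Y :=
      { carrier := {y | y = 1 ∨ y = c4}
        one_mem' := .inl rfl
        mul_mem' := by rintro _ _ (rfl | rfl) (rfl | rfl) <;> simp [hZ2 c4 hc4Z]
        inv_mem' := by rintro _ (rfl | rfl) <;> simp [hzi c4 hc4Z] }
    intro z hz
    refine (Subgroup.closure_le K).2 ?_ (hgen hz)
    rintro _ (⟨a, ha, rfl⟩ | ⟨q, hq', a, ha, rfl⟩)
    · rcases hA2 _ ha with h | h
      · exact .inl (hZ2 a h)
      · right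
        have hz : (c * c)⁻¹ * a ∈ f.ker := by
          rw [MonoidHom.mem_ker, map_mul, map_inv, h, inv_mul_cancel]
        have hcom := hA'c a ha (c * c) (show π (c * c) = 1 by rw [map_mul, hcQ, one_mul])
        calc a * a = (c * c) * ((c * c)⁻¹ * a * a) := by group
          _ = c * c * ((c * c)⁻¹ * a * ((c * c) * ((c * c)⁻¹ * a))) := by group
          _ = c * c * (c * c) * (((c * c)⁻¹ * a) * ((c * c)⁻¹ * a)) := by
            rw [← mul_assoc ((c * c)⁻¹ * a), hZc _ hz (c * c) (show π (c * c) = 1 by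
              rw [map_mul, hcQ, one_mul])]
            group
          _ = c4 := by rw [hZ2 _ hz, mul_one]
    · left
      rw [commutatorElement_eq_one_iff_mul_comm]
      exact (hA'c a ha q hq').symm
  have hc41 : c4 ≠ 1 := fun e => hZne (eq_bot_iff.2 fun z hz => Subgroup.mem_bot.2
    ((hZ z hz).elim id fun h => h.trans e))
  have hZcen : ∀ g, ∀ z ∈ f.ker, g * z * g⁻¹ = z := by
    intro g z hz
    rcases hZ z hz with rfl | rfl
    · simp
    · rcases hZ _ ((inferInstance : f.ker.Normal).conj_mem _ hc4Z g) with e | e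
      · exact absurd (conj_eq_one_iff.1 e) hc41
      · exact e
  -- classes in the invariant subgroup
  let cl : R → H.D := fun x => ⟨C.cls ⟨f x.1, RQ x.2⟩, (C.mem_pre _).1 x.2⟩
  have cl_mul : ∀ x y, cl (x * y) = cl x + cl y := fun x y => Subtype.ext (by
    show C.cls _ = C.cls _ + C.cls _
    rw [← C.cls_mul]; congr 1; exact Subtype.ext (map_mul f x.1 y.1))
  have cl_surj : Function.Surjective cl := by
    rintro ⟨v, hv⟩
    obtain ⟨⟨x, hx⟩, rfl⟩ := C.cls_surjective v
    obtain ⟨y, rfl⟩ := hf x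
    exact ⟨⟨y, (C.mem_pre hx).2 hv⟩, rfl⟩
  have cl_eq : ∀ {x y : R}, cl x = cl y → f ((x.1)⁻¹ * y.1) ∈ C.A := fun {x y} e => by
    rw [map_mul, map_inv]; exact C.cls_eq.1 (congrArg Subtype.val e)
  have cl_zero : ∀ {x : R}, cl x = 0 → f x.1 ∈ C.A := fun {x} e =>
    (C.cls_eq_zero _).1 (congrArg Subtype.val e)
  have cl_conj : ∀ g (x : R), cl ⟨g * x.1 * g⁻¹, hRn.conj_mem _ x.2 g⟩ = H.rep (π g) (cl x) := by
    intro g x
    apply Subtype.ext
    show C.cls _ = C.ρ (C.π (f g)) (C.cls _)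
    rw [C.ρ_apply]; congr 1; apply Subtype.ext
    rw [MulAut.conjNormal_apply]
    simp [map_mul]
  have Rcomm : ∀ a ∈ R, ∀ b ∈ R, a * b = b * a := by
    intro a ha b hb
    by_contra hab
    set A' : R := ⟨a, ha⟩ with hA'
    set B' : R := ⟨b, hb⟩ with hB'
    have h0a : cl A' ≠ 0 := fun e => hab (hA'c a (cl_zero e) b (RQ hb))
    have h0b : cl B' ≠ 0 := fun e => hab (hA'c b (cl_zero e) a (RQ ha)).symm
    have hne : cl A' ≠ cl B' := fun e => hab (by
      have hα := hA'c (a⁻¹ * b) (cl_eq e) a (RQ ha)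
      calc a * b = a * (a * (a⁻¹ * b)) := by group
        _ = a * (a⁻¹ * b * a) := by rw [hα]
        _ = b * a := by group)
    obtain ⟨t, t0, ta, tb, tab⟩ := exists_fourth (d.e (cl A')) (d.e (cl B'))
    obtain ⟨W, hW⟩ := cl_surj (d.e.symm t)
    obtain ⟨U, U0, Ua, Ucomm⟩ : ∃ U : R, cl U ≠ 0 ∧ cl U ≠ cl A' ∧ a * U.1 = U.1 * a := by
      by_cases hw : a * W.1 = W.1 * a
      · refine ⟨W, fun e => t0 ?_, fun e => ta ?_, hw⟩
        · rw [← d.e.apply_symm_apply t, ← hW, e, map_zero]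
        · rw [← d.e.apply_symm_apply t, ← hW, e]
      · refine ⟨B' * W, fun e => tb ?_, fun e => tab ?_, ?_⟩
        · rw [cl_mul, hW] at e
          have := congrArg d.e e
          rw [map_add, d.e.apply_symm_apply, map_zero] at this
          calc t = d.e (cl B') + t + d.e (cl B') := by rw [add_comm (d.e (cl B')) t, add_assoc, add_zmod_two, add_zero]
            _ = d.e (cl B') := by rw [this, zero_add]
        · rw [cl_mul, hW] at e
          have := congrArg d.e e
          rw [map_add, d.e.apply_symm_apply] at this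
          calc t = d.e (cl B') + (d.e (cl B') + t) := by rw [← add_assoc, add_zmod_two, zero_add]
            _ = _ := by rw [this, add_comm]
        · rw [← commutatorElement_eq_one_iff_mul_comm]
          show ⁅a, b * W.1⁆ = 1
          rw [hsymm _ _ (RQ ha) (show π (b * W.1) = 1 by rw [map_mul, RQ hb, RQ W.2, one_mul]),
            hbl b W.1 a (RQ hb) (RQ W.2) (RQ ha)]
          have e1 : ⁅b, a⁆ = c4 := (hZ _ (hcomm b a (RQ hb) (RQ ha))).resolve_left fun e =>
            hab (commutatorElement_eq_one_iff_mul_comm.1 e).symm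
          have e2 : ⁅W.1, a⁆ = c4 := (hZ _ (hcomm W.1 a (RQ W.2) (RQ ha))).resolve_left fun e =>
            hw (commutatorElement_eq_one_iff_mul_comm.1 e).symm
          rw [e1, e2, hZ2 _ hc4Z]
    obtain ⟨l, l1, l2⟩ := d.pair_transitive h0a U0 (Ne.symm Ua) h0a h0b hne
    obtain ⟨g, rfl⟩ := hπ l
    rw [← cl_conj] at l1 l2
    have α1 := cl_eq l1.symm
    have α2 := cl_eq l2.symm
    apply hab
    set p := a⁻¹ * (g * a * g⁻¹) with hp
    set p' := b⁻¹ * (g * U.1 * g⁻¹) with hp'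
    have eg : a * p * (b * p') = b * p' * (a * p) := by
      rw [show a * p = g * a * g⁻¹ by rw [hp, mul_inv_cancel_left],
        show b * p' = g * U.1 * g⁻¹ by rw [hp', mul_inv_cancel_left]]
      calc g * a * g⁻¹ * (g * U.1 * g⁻¹) = g * (a * U.1) * g⁻¹ := by group
        _ = _ := by rw [Ucomm]; group
    have c1 := hA'c p α1 b (RQ hb)
    have c2 := hA'c p' α2 a (RQ ha)
    have c3 := hA'c p α1 p' (RQ (AR α2))
    have e1 : a * p * (b * p') = a * b * (p * p') := by
      rw [show a * p * (b * p') = a * (p * b) * p' by group, c1]; group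
    have e2 : b * p' * (a * p) = b * a * (p * p') := by
      rw [show b * p' * (a * p) = b * (p' * a) * p by group, c2, c3]; group
    rw [e1, e2] at eg
    exact mul_right_cancel eg
  have hcn : ∀ n ∈ R, c * n = n * c := by
    intro n hn
    by_contra hcn
    have hinv : ∀ g, ⁅c, g * n * g⁻¹⁆ = ⁅c, n⁆ := by
      intro g
      have hgc : π (g * c * g⁻¹) = 1 := by rw [map_mul, map_mul, hcQ, mul_one, map_inv, mul_inv_cancel]
      have hm : c⁻¹ * (g * c * g⁻¹) ∈ R := hRidx _ (by rw [map_inv, hcQ, inv_one]) _ hgc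
        (fun h => hcR (inv_mem_iff.1 h)) (fun h => hcR (by
          have := hRn.conj_mem _ h g⁻¹
          rwa [inv_inv, show g⁻¹ * (g * c * g⁻¹) * g = c by group] at this))
      have hn' := hRn.conj_mem _ hn g
      have e : ⁅g * c * g⁻¹, g * n * g⁻¹⁆ = ⁅c, n⁆ := by
        rw [show ⁅g * c * g⁻¹, g * n * g⁻¹⁆ = g * ⁅c, n⁆ * g⁻¹ by
          simp only [commutatorElement_def]; group]
        exact hZcen g _ (hcomm c n hcQ (RQ hn))
      rw [show g * c * g⁻¹ = c * (c⁻¹ * (g * c * g⁻¹)) by group, hbl _ _ _ hcQ (RQ hm) (RQ hn'),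
        commutatorElement_eq_one_iff_mul_comm.2 (Rcomm _ hm _ hn'), mul_one] at e
      exact e
    have hn1 : ⁅c, n⁆ = c4 := (hZ _ (hcomm c n hcQ (RQ hn))).resolve_left fun e =>
      hcn (commutatorElement_eq_one_iff_mul_comm.1 e)
    have h0n : cl ⟨n, hn⟩ ≠ 0 := fun e => hcn (hA'c n (cl_zero e) c hcQ).symm
    have hall : ∀ x : R, cl x ≠ 0 → ⁅x.1, c⁆ = c4 := by
      intro x hx
      obtain ⟨l, hl⟩ := d.transitive h0n hx
      obtain ⟨g, rfl⟩ := hπ l
      rw [← cl_conj] at hl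
      have hα := cl_eq hl
      have hx' : π (g * n * g⁻¹) = 1 := RQ (hRn.conj_mem _ hn g)
      rw [show x.1 = g * n * g⁻¹ * ((g * n * g⁻¹)⁻¹ * x.1) by group,
        hbl _ _ _ hx' (RQ (AR hα)) hcQ,
        commutatorElement_eq_one_iff_mul_comm.2 (hA'c _ hα c hcQ), mul_one,
        hsymm _ _ hx' hcQ, hinv, hn1]
    obtain ⟨t, t0, t1, -, -⟩ := exists_fourth (d.e (cl ⟨n, hn⟩)) 0
    obtain ⟨W, hW⟩ := cl_surj (d.e.symm t)
    have hW0 : cl W ≠ 0 := fun e => t0 (by rw [← d.e.apply_symm_apply t, ← hW, e, map_zero])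
    have hsum : cl (⟨n, hn⟩ * W) ≠ 0 := fun e => t1 (by
      rw [cl_mul, hW] at e
      have := congrArg d.e e
      rw [map_add, d.e.apply_symm_apply, map_zero] at this
      calc t = d.e (cl ⟨n, hn⟩) + (d.e (cl ⟨n, hn⟩) + t) := by rw [← add_assoc, add_zmod_two, zero_add]
        _ = _ := by rw [this, add_zero])
    have := hall _ hsum
    rw [Subgroup.coe_mul, hbl n W.1 c (RQ hn) (RQ W.2) hcQ, hall ⟨n, hn⟩ h0n, hall W hW0,
      hZ2 _ hc4Z] at this
    exact hc41 this.symm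
  have Qdec : ∀ x, π x = 1 → x ∈ R ∨ c⁻¹ * x ∈ R := fun x hx => or_iff_not_imp_left.2 fun h =>
    hRidx _ (by rw [map_inv, hcQ, inv_one]) _ hx (fun h' => hcR (inv_mem_iff.1 h')) h
  have Qc : ∀ x, π x = 1 → c * x = x * c := by
    intro x hx
    rcases Qdec x hx with h | h
    · exact hcn x h
    · calc c * x = c * (c * (c⁻¹ * x)) := by group
        _ = c * (c⁻¹ * x * c) := by rw [hcn _ h]
        _ = x * c := by group
  -- `c * c` is central
  have hccc : ∀ g, g * (c * c) * g⁻¹ = c * c := by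
    have hm : ∀ g, g * (c * c) * g⁻¹ * (c * c)⁻¹ ∈ f.ker := by
      intro g
      have hgc : π (g * c * g⁻¹) = 1 := by rw [map_mul, map_mul, hcQ, mul_one, map_inv, mul_inv_cancel]
      rw [MonoidHom.mem_ker, map_mul, map_inv, mul_inv_eq_one]
      have hA1 : f (g * (c * c) * g⁻¹) ∈ C.A := by
        rw [map_mul, map_mul, map_inv]; exact C.An.conj_mem _ hccA _
      rcases hA2 _ hA1 with e | e
      · rw [map_mul, map_mul, map_inv] at e
        exact absurd (conj_eq_one_iff.1 e) hcc1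
      · exact e
    let θ : Y →* f.ker := MonoidHom.mk' (fun g => ⟨g * (c * c) * g⁻¹ * (c * c)⁻¹, hm g⟩)
      fun g k => Subtype.ext (by
        show g * k * (c * c) * (g * k)⁻¹ * (c * c)⁻¹ =
          g * (c * c) * g⁻¹ * (c * c)⁻¹ * (k * (c * c) * k⁻¹ * (c * c)⁻¹)
        have h1 := hm k
        have h2 := hm g
        calc g * k * (c * c) * (g * k)⁻¹ * (c * c)⁻¹ =
              g * (k * (c * c) * k⁻¹ * (c * c)⁻¹) * g⁻¹ * (g * (c * c) * g⁻¹ * (c * c)⁻¹) := by group
          _ = (k * (c * c) * k⁻¹ * (c * c)⁻¹) * (g * (c * c) * g⁻¹ * (c * c)⁻¹) := by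
            rw [hZcen g _ h1]
          _ = _ := hZc _ h1 _ (by rw [MonoidHom.mem_ker] at h2; rw [h2, map_one]))
    have hker : π.ker ≤ θ.ker := fun g hg => MonoidHom.mem_ker.2 (Subtype.ext (by
      show g * (c * c) * g⁻¹ * (c * c)⁻¹ = 1
      rw [← hA'c (c * c) hccA g hg]; group))
    let θ' : L →* f.ker := π.liftOfSurjective hπ ⟨θ, hker⟩
    intro g
    rcases SmallGroups.injective_or_trivial θ' with hi | hi
    · refine absurd ⟨⟨fun a b => hi ?_⟩⟩ (SmallGroups.Order168.not_comm hL)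
      rw [map_mul, map_mul]
      apply Subtype.ext
      rcases hZ _ (θ' a).2 with e | e <;> rcases hZ _ (θ' b).2 with e' | e' <;>
        simp [Subgroup.coe_mul, e, e']
    · have h1 : θ' (π g) = θ g := MonoidHom.liftOfRightInverse_comp_apply _ _ _ _ g
      rw [hi] at h1
      exact mul_inv_eq_one.1 (congrArg Subtype.val h1.symm)
  have RR : ∀ m ∈ R, m * m ∈ f.ker := fun m hm => by
    rw [MonoidHom.mem_ker, map_mul]; exact ((hR2 _).1 hm).2
  have hmq : ∀ g, c⁻¹ * (g * c * g⁻¹) ∈ R ∧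
      c⁻¹ * (g * c * g⁻¹) * (c⁻¹ * (g * c * g⁻¹)) = 1 := by
    intro g
    have hgc : π (g * c * g⁻¹) = 1 := by rw [map_mul, map_mul, hcQ, mul_one, map_inv, mul_inv_cancel]
    refine ⟨hRidx _ (by rw [map_inv, hcQ, inv_one]) _ hgc (fun h => hcR (inv_mem_iff.1 h))
      (fun h => hcR (by
        have := hRn.conj_mem _ h g⁻¹
        rwa [inv_inv, show g⁻¹ * (g * c * g⁻¹) * g = c by group] at this)), ?_⟩
    have hcm : g * c * g⁻¹ * c⁻¹ = c⁻¹ * (g * c * g⁻¹) :=
      by rw [mul_inv_eq_iff_eq_mul, mul_assoc c⁻¹, ← Qc _ hgc, inv_mul_cancel_left]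
    conv_lhs => arg 1; rw [← hcm]
    rw [show g * c * g⁻¹ * c⁻¹ * (c⁻¹ * (g * c * g⁻¹)) = g * c * g⁻¹ * (c * c)⁻¹ * (g * c * g⁻¹) by group]
    rw [mul_assoc, hA'c (c * c)⁻¹ (by rw [map_inv]; exact C.A.inv_mem hccA) (g * c * g⁻¹) hgc,
      show g * c * g⁻¹ * (g * c * g⁻¹ * (c * c)⁻¹) = g * (c * c) * g⁻¹ * (c * c)⁻¹ by group, hccc,
      mul_inv_cancel]
  have hcmodR : ∀ g q, π q = 1 → g * q * g⁻¹ * q⁻¹ ∈ R := by
    intro g q hq
    have hgq : π (g * q * g⁻¹) = 1 := by rw [map_mul, map_mul, hq, mul_one, map_inv, mul_inv_cancel]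
    by_cases hqR : q ∈ R
    · exact R.mul_mem (hRn.conj_mem _ hqR g) (R.inv_mem hqR)
    · refine hRidx _ hgq _ (by rw [map_inv, hq, inv_one]) (fun h => hqR ?_)
        (fun h => hqR (inv_mem_iff.1 h))
      have := hRn.conj_mem _ h g⁻¹
      rwa [inv_inv, show g⁻¹ * (g * q * g⁻¹) * g = q by group] at this
  haveI : IsMulCommutative R := ⟨⟨fun a b => Subtype.ext (Rcomm a a.2 b b.2)⟩⟩
  let pn : Additive R →+ H.D := AddMonoidHom.mk' (fun x => cl x.toMul) fun x y => cl_mul _ _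
  have hp : Function.Surjective pn := fun v => by
    obtain ⟨x, hx⟩ := cl_surj v
    exact ⟨Additive.ofMul x, hx⟩
  have heq : ∀ g x, pn (act R g x) = H.rep (π g) (pn x) := fun g x => by
    show cl _ = H.rep (π g) (cl x.toMul)
    rw [← cl_conj]
    congr 1
  obtain ⟨h0, r, hr3, hh0, -, hx0, ha, hb⟩ := exists_lifts d hπ hQ
  -- the square of a lift of the involution
  have hh : h0 * h0 ∈ R := by
    set h2 := r * h0 * r⁻¹ with hh2
    set h3 := r * h2 * r⁻¹ with hh3
    have q2 : π (h2 * h2) = 1 := by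
      rw [show h2 * h2 = r * (h0 * h0) * r⁻¹ by rw [hh2]; group, map_mul, map_mul, hh0, mul_one,
        map_inv, mul_inv_cancel]
    have q3 : π (h3 * h3) = 1 := by
      rw [show h3 * h3 = r * (h2 * h2) * r⁻¹ by rw [hh3]; group, map_mul, map_mul, q2, mul_one,
        map_inv, mul_inv_cancel]
    have lcomm : π h2 * π h0 = π h0 * π h2 := by
      have i1 : (π h0)⁻¹ = π h0 := inv_eq_of_mul_eq_one_right (by rw [← map_mul]; exact hh0)
      have i2 : (π h2)⁻¹ = π h2 := inv_eq_of_mul_eq_one_right (by rw [← map_mul]; exact q2)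
      have i3 : (π h3)⁻¹ = π h3 := inv_eq_of_mul_eq_one_right (by rw [← map_mul]; exact q3)
      have e : π h0 * π h2 = π h3 := by
        rw [← i3]; exact eq_inv_of_mul_eq_one_left (by rw [← map_mul, ← map_mul]; exact hx0)
      rw [e, ← i3, ← e, mul_inv_rev, i1, i2]
    set k := h2 * h0 * h2⁻¹ * h0⁻¹ with hk
    have hkQ : π k = 1 := by
      rw [hk, map_mul, map_mul, map_mul, map_inv, map_inv, lcomm]; group
    -- `k` has square in the subgroup of exponent two
    have hk2 : k * k * (k * k) = 1 := by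
      have e1 : h2 * k * h2⁻¹ * k = h2 * h2 * h0 * (h2 * h2)⁻¹ * h0⁻¹ := by rw [hk]; group
      obtain ⟨j, hjR, hj, hje⟩ : ∃ j, j ∈ R ∧ j * j = 1 ∧ h2 * k * h2⁻¹ = k * j := by
        rcases Qdec k hkQ with hkR | hkR
        · refine ⟨k⁻¹ * (h2 * k * h2⁻¹), R.mul_mem (R.inv_mem hkR) (hRn.conj_mem _ hkR _), ?_, by group⟩
          have hkk := RR k hkR
          have := hZcen h2 _ hkk
          calc k⁻¹ * (h2 * k * h2⁻¹) * (k⁻¹ * (h2 * k * h2⁻¹)) =
                k⁻¹ * ((h2 * k * h2⁻¹) * k⁻¹) * (h2 * k * h2⁻¹) := by group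
            _ = k⁻¹ * (k⁻¹ * (h2 * k * h2⁻¹)) * (h2 * k * h2⁻¹) := by
              rw [Rcomm _ (hRn.conj_mem _ hkR _) _ (R.inv_mem hkR)]
            _ = (k * k)⁻¹ * (h2 * (k * k) * h2⁻¹) := by group
            _ = 1 := by rw [this, inv_mul_cancel]
        · obtain ⟨hmR, hm⟩ := hmq h2
          set n := c⁻¹ * k with hn
          have hkn : k = c * n := by rw [hn, mul_inv_cancel_left]
          have hn' := hRn.conj_mem _ hkR h2
          refine ⟨c⁻¹ * (h2 * c * h2⁻¹) * (n⁻¹ * (h2 * n * h2⁻¹)),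
            R.mul_mem hmR (R.mul_mem (R.inv_mem hkR) hn'), ?_, ?_⟩
          · set m := c⁻¹ * (h2 * c * h2⁻¹) with hmdef
            set w := n⁻¹ * (h2 * n * h2⁻¹) with hw
            have hwR : w ∈ R := R.mul_mem (R.inv_mem hkR) hn'
            have hw2 : w * w = 1 := by
              have := hZcen h2 _ (RR n hkR)
              calc w * w = n⁻¹ * ((h2 * n * h2⁻¹) * n⁻¹) * (h2 * n * h2⁻¹) := by rw [hw]; group
                _ = n⁻¹ * (n⁻¹ * (h2 * n * h2⁻¹)) * (h2 * n * h2⁻¹) := by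
                  rw [Rcomm _ hn' _ (R.inv_mem hkR)]
                _ = (n * n)⁻¹ * (h2 * (n * n) * h2⁻¹) := by group
                _ = 1 := by rw [this, inv_mul_cancel]
            calc m * w * (m * w) = m * (w * m) * w := by group
              _ = (m * m) * (w * w) := by rw [Rcomm _ hwR _ hmR]; group
              _ = 1 := by rw [hm, hw2, one_mul]
          · rw [hkn]
            calc h2 * (c * n) * h2⁻¹ = c * (c⁻¹ * (h2 * c * h2⁻¹)) * n * (n⁻¹ * (h2 * n * h2⁻¹)) := by group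
              _ = _ := by rw [mul_assoc c (c⁻¹ * (h2 * c * h2⁻¹)) n, Rcomm _ hmR _ hkR]; group
      obtain ⟨i, hiR, hi, hie⟩ : ∃ i, i ∈ R ∧ i * i = 1 ∧ h2 * h2 * h0 * (h2 * h2)⁻¹ * h0⁻¹ = i := by
        rcases Qdec _ q2 with hqR | hqR
        · refine ⟨_, ?_, ?_, rfl⟩
          · rw [show h2 * h2 * h0 * (h2 * h2)⁻¹ * h0⁻¹ = h2 * h2 * (h0 * (h2 * h2)⁻¹ * h0⁻¹) by group]
            exact R.mul_mem hqR (hRn.conj_mem _ (R.inv_mem hqR) _)
          · have := hZcen h0 _ (f.ker.inv_mem (RR _ hqR))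
            rw [show h2 * h2 * h0 * (h2 * h2)⁻¹ * h0⁻¹ = h2 * h2 * (h0 * (h2 * h2)⁻¹ * h0⁻¹) by group]
            set q := h2 * h2
            calc q * (h0 * q⁻¹ * h0⁻¹) * (q * (h0 * q⁻¹ * h0⁻¹)) =
                  q * ((h0 * q⁻¹ * h0⁻¹) * q) * (h0 * q⁻¹ * h0⁻¹) := by group
              _ = q * (q * (h0 * q⁻¹ * h0⁻¹)) * (h0 * q⁻¹ * h0⁻¹) := by
                rw [Rcomm _ (hRn.conj_mem _ (R.inv_mem hqR) _) _ hqR]
              _ = q * q * (h0 * (q * q)⁻¹ * h0⁻¹) := by group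
              _ = 1 := by rw [this, mul_inv_cancel]
        · set q := h2 * h2 with hq'
          set n := c⁻¹ * q with hn
          obtain ⟨hmR, hm⟩ := hmq h0
          set m := c⁻¹ * (h0 * c * h0⁻¹) with hmdef
          have hn' := hRn.conj_mem _ (R.inv_mem hqR) h0
          set w := n * (h0 * n⁻¹ * h0⁻¹) with hw
          have hwR : w ∈ R := R.mul_mem hqR hn'
          have hw2 : w * w = 1 := by
            have := hZcen h0 _ (f.ker.inv_mem (RR n hqR))
            calc w * w = n * ((h0 * n⁻¹ * h0⁻¹) * n) * (h0 * n⁻¹ * h0⁻¹) := by rw [hw]; group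
              _ = n * (n * (h0 * n⁻¹ * h0⁻¹)) * (h0 * n⁻¹ * h0⁻¹) := by rw [Rcomm _ hn' _ hqR]
              _ = n * n * (h0 * (n * n)⁻¹ * h0⁻¹) := by group
              _ = 1 := by rw [this, mul_inv_cancel]
          refine ⟨w * m⁻¹, R.mul_mem hwR (R.inv_mem hmR), ?_, ?_⟩
          · calc w * m⁻¹ * (w * m⁻¹) = w * (m⁻¹ * w) * m⁻¹ := by group
              _ = w * (w * m⁻¹) * m⁻¹ := by rw [Rcomm _ (R.inv_mem hmR) _ hwR]
              _ = w * w * (m * m)⁻¹ := by group
              _ = 1 := by rw [hm, hw2, inv_one, mul_one]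
          · have hcw := hcn w hwR
            calc h2 * h2 * h0 * (h2 * h2)⁻¹ * h0⁻¹ = c * n * h0 * (c * n)⁻¹ * h0⁻¹ := by
                  rw [hn, mul_inv_cancel_left]
              _ = c * w * (h0 * c * h0⁻¹)⁻¹ := by rw [hw]; group
              _ = w * c * (h0 * c * h0⁻¹)⁻¹ := by rw [hcw]
              _ = w * ((h0 * c * h0⁻¹)⁻¹ * c) := by
                rw [mul_assoc w, Qc (h0 * c * h0⁻¹)⁻¹ (by
                  rw [map_inv, map_mul, map_mul, map_inv, hcQ, mul_one, mul_inv_cancel, inv_one])]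
              _ = w * m⁻¹ := by rw [hmdef]; group
      rw [hie, hje] at e1
      have hkk : k * k = i * j⁻¹ := by
        have hjk : j * k = k * j := by
          rcases Qdec k hkQ with h | h
          · exact Rcomm _ hjR _ h
          · calc j * k = j * c * (c⁻¹ * k) := by group
              _ = c * (j * (c⁻¹ * k)) := by rw [← hcn j hjR]; group
              _ = k * j := by rw [Rcomm _ hjR _ h]; group
        calc k * k = k * (j * k) * j⁻¹ * (k⁻¹ * j * k * j⁻¹)⁻¹ := by group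
          _ = k * (k * j) * j⁻¹ := by rw [hjk, mul_assoc k⁻¹, hjk]; group
          _ = k * j * k * j⁻¹ := by rw [mul_assoc k j k, hjk]
          _ = i * j⁻¹ := by rw [e1]
      rw [hkk]
      calc i * j⁻¹ * (i * j⁻¹) = i * (j⁻¹ * i) * j⁻¹ := by group
        _ = i * (i * j⁻¹) * j⁻¹ := by rw [Rcomm _ (R.inv_mem hjR) _ hiR]
        _ = i * i * (j * j)⁻¹ := by group
        _ = 1 := by rw [hi, hj, inv_one, mul_one]
    have hkR : k ∈ R := by
      rcases Qdec k hkQ with h | h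
      · exact h
      exfalso
      set n := c⁻¹ * k with hn
      have hkn : k = c * n := by rw [hn, mul_inv_cancel_left]
      apply hc41
      have hcn' := hcn n h
      have hnn : n * n * (c * c) = c * c * (n * n) := hZc _ (RR n h) _ (by
        show π (c * c) = 1; rw [map_mul, hcQ, one_mul])
      calc c4 = c * c * (c * c) * ((n * n) * (n * n)) := by rw [hZ2 _ (RR n h), mul_one]
        _ = c * c * ((c * c) * (n * n)) * (n * n) := by group
        _ = c * c * (n * n * (c * c)) * (n * n) := by rw [hnn]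
        _ = (c * c * (n * n)) * (c * c * (n * n)) := by group
        _ = k * k * (k * k) := by
          rw [hkn, show c * n * (c * n) = c * (n * c) * n by group, ← hcn']; group
        _ = 1 := hk2
    let p : Y →* Y ⧸ R := QuotientGroup.mk' R
    have p1 : ∀ y, p y = 1 ↔ y ∈ R := fun y => QuotientGroup.eq_one_iff y
    have pc : ∀ g q, π q = 1 → p g * p q = p q * p g := fun g q hq => by
      have := (p1 _).2 (hcmodR g q hq)
      rw [map_mul, map_mul, map_mul, map_inv, map_inv] at this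
      exact mul_inv_eq_iff_eq_mul.1 (mul_inv_eq_one.1 this)
    have ps : ∀ q, π q = 1 → p q * p q = 1 := fun q hq => by
      rcases Qdec q hq with h | h
      · rw [(p1 q).2 h, one_mul]
      · rw [← map_mul, p1]
        by_cases hqR : q ∈ R
        · exact R.mul_mem hqR hqR
        · exact hRidx q hq q hq hqR hqR
    rw [← p1]
    have e2 : p (h2 * h2) = p (h0 * h0) := by
      rw [show h2 * h2 = r * (h0 * h0) * r⁻¹ by rw [hh2]; group, map_mul, map_mul, map_inv,
        pc r _ hh0, mul_inv_cancel_right]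
    have e3 : p (h3 * h3) = p (h0 * h0) := by
      rw [show h3 * h3 = r * (h2 * h2) * r⁻¹ by rw [hh3]; group, map_mul, map_mul, map_inv,
        pc r _ q2, mul_inv_cancel_right, e2]
    have ec : p h2 * p h0 = p h0 * p h2 := by
      have := (p1 k).2 hkR
      rw [hk, map_mul, map_mul, map_mul, map_inv, map_inv] at this
      exact mul_inv_eq_iff_eq_mul.1 (mul_inv_eq_one.1 this)
    set x := h0 * h2 * h3 with hxdef
    have hxπ : π x = 1 := hx0
    have e4 : p h0 * p h2 = p x * (p h3)⁻¹ := by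
      rw [hxdef, map_mul p (h0 * h2) h3, map_mul p h0 h2, mul_inv_cancel_right]
    have lhs : p h0 * p h2 * (p h0 * p h2) = 1 := by
      rw [show p h0 * p h2 * (p h0 * p h2) = p h0 * (p h2 * p h0) * p h2 by group, ec,
        show p h0 * (p h0 * p h2) * p h2 = (p h0 * p h0) * (p h2 * p h2) by group, ← map_mul p h0,
        ← map_mul p h2, e2, ps _ hh0]
    rw [e4] at lhs
    have c5 : (p h3)⁻¹ * p x = p x * (p h3)⁻¹ := by rw [← map_inv, pc _ _ hxπ]
    rw [show p x * (p h3)⁻¹ * (p x * (p h3)⁻¹) = p x * ((p h3)⁻¹ * p x) * (p h3)⁻¹ by group, c5,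
      show p x * (p x * (p h3)⁻¹) * (p h3)⁻¹ = p x * p x * (p h3 * p h3)⁻¹ by group, ps _ hxπ,
      one_mul, inv_eq_one, ← map_mul, e3] at lhs
    exact lhs
  obtain ⟨h, hhπ, T⟩ := exists_triple R hr3 hh hRidx hx0
  rw [← hhπ] at ha
  set S := mkOps d R pn heq T ha hb hp with hS
  have hO : ∀ y : Additive R, pn y = 0 → f (y.toMul : Y) ∈ C.A := fun y hy => cl_zero hy
  have hfixA : ∀ g, ∀ y : Additive R, pn y = 0 → act R g y = y := by
    intro g y hy
    apply ext_val
    rw [act_val]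
    rcases hA2 _ (hO y hy) with e | e
    · exact hZcen g _ e
    · have hz : (c * c)⁻¹ * (y.toMul : Y) ∈ f.ker := by
        rw [MonoidHom.mem_ker, map_mul, map_inv, e, inv_mul_cancel]
      calc g * (y.toMul : Y) * g⁻¹ = g * (c * c) * g⁻¹ * (g * ((c * c)⁻¹ * (y.toMul : Y)) * g⁻¹) := by group
        _ = y.toMul := by rw [hccc, hZcen g _ hz, mul_inv_cancel_left]
  have hdbl : ∀ g (y : Additive R), act R g (y + y) = y + y := by
    intro g y
    apply ext_val
    rw [act_val]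
    exact hZcen g _ (RR _ y.toMul.2)
  refine ops_contradiction h4 T S (fun a => rfl) (fun a => rfl) (fun a => rfl) ?_
    (fun y _ _ => hdbl r y) (fun y => ⟨hdbl h y, hdbl _ y⟩) (fun y => ext_val R (hZ2 _ (RR _ y.toMul.2)))
    ⟨el R (g := c * c) (AR hccA), ?_, ?_, ?_⟩
  · intro y y1 y2
    have o1 : S.u1 y - y ∈ S.O := (S.mem1 y).2 y1
    have o2 : S.u2 y - y ∈ S.O := (S.mem2 y).2 y2
    have hry : S.r y - y ∈ S.O := by
      show pn (act R r y - y) = 0
      rw [map_sub, sub_eq_zero]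
      apply d.e.injective
      rw [heq, hb]
      exact mur_fix _ y1 y2
    obtain ⟨δ1, hδ1⟩ : ∃ δ, δ = S.u1 y - y := ⟨_, rfl⟩
    obtain ⟨δ2, hδ2⟩ : ∃ δ, δ = S.u2 y - y := ⟨_, rfl⟩
    obtain ⟨o, ho⟩ : ∃ o, o = S.r y - y := ⟨_, rfl⟩
    have F : ∀ g, ∀ z ∈ S.O, act R g z = z := fun g z hz => hfixA g z hz
    have E1 : S.u1 y = y + δ1 := by rw [hδ1]; abel
    have E2 : S.u2 y = y + δ2 := by rw [hδ2]; abel
    have Er : S.r y = y + o := by rw [ho]; abel
    have F1 : ∀ z ∈ S.O, S.u1 z = z ∧ S.u2 z = z ∧ S.r z = z := fun z hz =>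
      ⟨F h z hz, F _ z hz, F r z hz⟩
    rw [← hδ1] at o1
    rw [← hδ2] at o2
    rw [← ho] at hry
    have r1 := S.rel1 y
    rw [E1, Er, map_add, map_add, Er, E2, (F1 _ o1).2.2, (F1 _ hry).2.1] at r1
    have hδ : δ1 = δ2 := by
      have := add_left_cancel (a := y) (b := o + δ1) (c := δ2 + o) (by rw [← add_assoc, r1, add_assoc])
      rw [add_comm δ2 o] at this
      exact add_left_cancel this
    have r2 := S.rel2 y
    rw [E2, Er, map_add, map_add, Er, E2, (F1 _ o2).2.2, (F1 _ hry).2.1, map_add, map_add, E1,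
      (F1 _ o2).1, (F1 _ hry).1] at r2
    have h0 : δ1 = 0 := by
      have : y + o + δ2 = y + δ1 + δ2 + o := r2
      rw [show y + δ1 + δ2 + o = δ1 + (y + o + δ2) by abel] at this
      exact right_eq_add.1 this
    exact ⟨by rw [E1, h0, add_zero], by rw [E2, ← hδ, h0, add_zero]⟩
  · show d.e (pn _) 0 = 0
    rw [show pn (el R (g := c * c) (AR hccA)) = 0 from Subtype.ext ((C.cls_eq_zero _).2 hccA), map_zero]
    rfl
  · show d.e (pn _) 1 = 0
    rw [show pn (el R (g := c * c) (AR hccA)) = 0 from Subtype.ext ((C.cls_eq_zero _).2 hccA), map_zero]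
    rfl
  · intro e
    exact hc41 (congrArg (fun y : Additive R => (y.toMul : Y)) e)

end Cfsg.Agent.RadicalLThree
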