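import Cfsg.Agent.RadicalLThree.Long
import Cfsg.Prelude.Def_Local
import Cfsg.Agent.PSolv.HallHigman
import Cfsg.Agent.PGroup.Frattini

/-!
# The 2-radical under a quotient of order 168
-/

set_option autoImplicit false
set_option linter.all false

namespace Cfsg.Agent.RadicalLThree

universe u v

open scoped commutatorElement

section layer

variable {L : Type v} [Group L] {Y : Type u} [Group Y]

/-- The subgroup generated by the squares of the kernel. -/
def sqs (π : Y →* L) : Subgroup Y := Subgroup.closure {x | ∃ q ∈ π.ker, x = q * q}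

instance sqs_normal (π : Y →* L) : (sqs π).Normal := by
  refine ⟨fun n hn w => ?_⟩
  have hle : sqs π ≤ (sqs π).comap (MulAut.conj w).toMonoidHom := by
    refine (Subgroup.closure_le _).2 ?_
    rintro x ⟨q, hq, rfl⟩
    refine Subgroup.subset_closure ⟨w * q * w⁻¹, (inferInstance : π.ker.Normal).conj_mem q hq w, ?_⟩
    simp [mul_assoc]
  exact hle hn

lemma sqs_le (π : Y →* L) : sqs π ≤ π.ker :=
  (Subgroup.closure_le _).2 (by rintro x ⟨q, hq, rfl⟩; exact π.ker.mul_mem hq hq)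

lemma sqs_map {Z : Type*} [Group Z] (π : Y →* L) (f : Y →* Z) (hf : Function.Surjective f)
    (π' : Z →* L) (h : π = π'.comp f) : sqs π' = (sqs π).map f := by
  subst h
  rw [sqs, sqs, MonoidHom.map_closure]
  congr 1
  ext x
  constructor
  · rintro ⟨q, hq, rfl⟩
    obtain ⟨y, rfl⟩ := hf q
    exact ⟨y * y, ⟨y, hq, rfl⟩, map_mul f y y⟩
  · rintro ⟨_, ⟨q, hq, rfl⟩, rfl⟩
    exact ⟨f q, hq, map_mul f q q⟩

/-- The layer given by the squares. -/
def mkCfg (π : Y →* L) (hπ : Function.Surjective π) (hQ : IsPGroup 2 π.ker)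
    (A2 : ∀ a ∈ sqs π, a * a = 1) (Ac : ∀ a ∈ sqs π, ∀ q ∈ π.ker, a * q = q * a)
    (nt : ∃ g, ∃ q ∈ π.ker, q⁻¹ * (g * q * g⁻¹) ∉ sqs π) : Cfg L Y where
  π := π
  hπ := hπ
  hQ := hQ
  A := sqs π
  An := sqs_normal π
  le := sqs_le π
  sq q hq := Subgroup.subset_closure ⟨q, hq, rfl⟩
  gen := le_rfl
  A2 := A2
  Ac := Ac
  nt := nt

variable [Finite Y] (C : Cfg L Y)

/-- An elementary kernel is the module. -/
lemma Cfg.card_Q (h : C.A = ⊥) : Nat.card C.Q = Nat.card C.V := by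
  refine Nat.card_congr (Equiv.ofBijective C.cls ⟨fun x y e => Subtype.ext ?_, C.cls_surjective⟩)
  have := C.cls_eq.1 e
  rw [h, Subgroup.mem_bot] at this
  exact inv_mul_eq_one.1 this

/-- The abelian group of order thirty-two. -/
theorem Cfg.exists_mulEquiv (H : Hyp C.ρ) (h16 : Nat.card C.V = 16) (hB : ∀ x y, C.B x y = 0)
    (hq : ∀ v, C.q v = 0 ↔ v ∈ H.D) (hA : Nat.card C.A = 2) :
    Nonempty (↥C.Q ≃* Multiplicative (ZMod 4) × (Fin 3 → Multiplicative (ZMod 2))) := by
  classical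
  haveI : IsMulCommutative C.Q := ⟨⟨fun a b => Subtype.ext (C.comm_of_B hB a a.2 b b.2)⟩⟩
  obtain ⟨e⟩ := finrank_of_card H.card (fun v => Subtype.ext (C.V2 v.1))
  obtain ⟨v0, hv0⟩ : ∃ v, v ∉ H.D := by
    by_contra h
    push Not at h
    have := H.card
    rw [show H.D = ⊤ from eq_top_iff.2 fun v _ => h v, AddSubgroup.card_top, h16] at this
    omega
  obtain ⟨c, rfl⟩ := C.cls_surjective v0
  let P : Additive C.Q →+ C.V := AddMonoidHom.mk' (fun x => C.cls x.toMul) fun x y => rfl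
  have hc2 : Additive.ofMul c + Additive.ofMul c ≠ 0 := fun h =>
    hv0 ((hq _).1 ((C.q_cls_eq_zero c).2 (congrArg (fun x : Additive C.Q => (x.toMul : Y)) h)))
  have hc4 : (4 : ℤ) • Additive.ofMul c = 0 := by
    rw [show (4 : ℤ) • Additive.ofMul c =
      (Additive.ofMul c + Additive.ofMul c) + (Additive.ofMul c + Additive.ofMul c) by abel]
    exact Additive.toMul.injective (Subtype.ext (C.A2 _ (C.sq _ c.2)))
  choose a ha using fun i : Fin 3 => C.cls_surjective (e.symm (Pi.single i 1) : C.V)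
  have ha2 : ∀ i, (2 : ℤ) • Additive.ofMul (a i) = 0 := fun i => by
    rw [two_zsmul]
    refine Additive.toMul.injective (Subtype.ext ((C.q_cls_eq_zero (a i)).1 ((hq _).2 ?_)))
    rw [ha]; exact (e.symm _).2
  let f1 : ZMod 4 →+ Additive C.Q := ZMod.lift 4 ⟨zmultiplesHom _ (Additive.ofMul c), hc4⟩
  let g : Fin 3 → ZMod 2 →+ Additive C.Q := fun i =>
    ZMod.lift 2 ⟨zmultiplesHom _ (Additive.ofMul (a i)), ha2 i⟩
  let f2 : V3 →+ Additive C.Q :=
    ∑ i, (g i).comp (Pi.evalAddMonoidHom (fun _ : Fin 3 => ZMod 2) i)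
  have hf1 : ∀ n : ℤ, f1 n = n • Additive.ofMul c := fun n => ZMod.lift_coe 4 _ n
  have hg : ∀ i, g i 1 = Additive.ofMul (a i) := fun i => by
    have := ZMod.lift_coe 2 ⟨zmultiplesHom _ (Additive.ofMul (a i)), ha2 i⟩ 1
    simpa [g] using this
  have hf2 : ∀ v, P (f2 v) = (e.symm v : C.V) := by
    have : P.comp f2 = H.D.subtype.comp e.symm.toAddMonoidHom := by
      refine AddMonoidHom.functions_ext _ _ _ fun i b => ?_
      show P (f2 (Pi.single i b)) = (e.symm (Pi.single i b) : C.V)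
      have hsum : f2 (Pi.single i b) = g i b := by
        simp only [f2, AddMonoidHom.finsetSum_apply, AddMonoidHom.comp_apply, Pi.evalAddMonoidHom_apply]
        rw [Finset.sum_eq_single i (fun j _ hj => by rw [Pi.single_eq_of_ne hj, map_zero])
          (fun h => absurd (Finset.mem_univ i) h), Pi.single_eq_same]
      rw [hsum]
      rcases zmod_two_cases b with rfl | rfl
      · rw [map_zero, map_zero, Pi.single_zero, map_zero]; rfl
      · rw [hg]; exact ha i
    exact fun v => DFunLike.congr_fun this v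
  let F : ZMod 4 × V3 →+ Additive C.Q := f1.coprod f2
  have hinj : Function.Injective F := by
    rw [injective_iff_map_eq_zero]
    rintro ⟨k, v⟩ h
    have h' : f1 k + f2 v = 0 := h
    have hP := congrArg P h'
    rw [map_add, map_zero, hf2] at hP
    have hP1 : P (Additive.ofMul c) = C.cls c := rfl
    have h0 : f1 0 = 0 := map_zero f1
    have v0of : (e.symm v : C.V) = 0 → v = 0 := fun h =>
      e.symm.injective (Subtype.ext (h.trans (by rw [map_zero]; rfl)))
    rcases (show ∀ k : ZMod 4, k = 0 ∨ k = (1 : ℤ) ∨ k = (2 : ℤ) ∨ k = (3 : ℤ) by decide) k with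
      rfl | rfl | rfl | rfl
    · rw [map_zero, map_zero, zero_add] at hP
      rw [v0of hP]; rfl
    · rw [hf1, one_zsmul, hP1] at hP
      exact absurd (by rw [eq_neg_of_add_eq_zero_left hP]; exact H.D.neg_mem (e.symm v).2) hv0
    · rw [hf1, map_zsmul, hP1, two_zsmul, C.V2, zero_add] at hP
      rw [v0of hP, map_zero, add_zero, hf1, two_zsmul] at h'
      exact absurd h' hc2
    · rw [hf1, map_zsmul, hP1, show (3 : ℤ) = 2 + 1 from rfl, add_zsmul, two_zsmul, C.V2, zero_add,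
        one_zsmul] at hP
      exact absurd (by rw [eq_neg_of_add_eq_zero_left hP]; exact H.D.neg_mem (e.symm v).2) hv0
  have hcard : Nat.card C.Q = 32 := by
    rw [(C.A.subgroupOf C.Q).card_eq_card_quotient_mul_card_subgroup,
      Nat.card_congr (Subgroup.subgroupOfEquivOfLe C.le).toEquiv, hA]
    show Nat.card C.V * 2 = 32
    rw [h16]
  have hcd : Nat.card (Additive C.Q) ≤ Nat.card (ZMod 4 × V3) := by
    rw [Nat.card_congr (Additive.toMul : Additive C.Q ≃ C.Q), hcard]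
    simp
  let T : Multiplicative (ZMod 4) × (Fin 3 → Multiplicative (ZMod 2)) ≃* Multiplicative (ZMod 4 × V3) :=
    { toFun := fun p => Multiplicative.ofAdd (p.1.toAdd, fun i => (p.2 i).toAdd)
      invFun := fun p => (Multiplicative.ofAdd p.toAdd.1, fun i => Multiplicative.ofAdd (p.toAdd.2 i))
      left_inv := fun p => rfl
      right_inv := fun p => rfl
      map_mul' := fun p q => rfl }
  exact ⟨(T.trans ((AddEquiv.ofBijective F (hinj.bijective_of_nat_card_le hcd)).toMultiplicativeLeft)).symm⟩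

end layer

/-- The main theorem. -/
theorem radical_of_card_168 {X : Type u} [Group X] [Finite X] (hc : IsPConstrained 2 X)
    (hO : oddCore X = ⊥) (h4 : SectionalPRankLE 2 4 X) {L : Type v} [Group L] [Finite L]
    [IsSimpleGroup L] (hL : Nat.card L = 168) (iso : X ⧸ pCore 2 X ≃* L) :
    (IsElementaryAbelian 2 (pCore 2 X) ∧
        (Nat.card ↥(pCore 2 X) = 8 ∨ Nat.card ↥(pCore 2 X) = 16)) ∨
      Nonempty (↥(pCore 2 X) ≃* Multiplicative (ZMod 4) × (Fin 3 → Multiplicative (ZMod 2))) := by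
  classical
  haveI : Fact (Nat.Prime 2) := ⟨Nat.prime_two⟩
  haveI : Fact (Nat.Prime 3) := ⟨Nat.prime_three⟩
  set Q := pCore 2 X with hQdef
  let π : X →* L := iso.toMonoidHom.comp (QuotientGroup.mk' Q)
  have hπ : Function.Surjective π := iso.surjective.comp (QuotientGroup.mk'_surjective Q)
  have hker : π.ker = Q := by
    ext x
    rw [MonoidHom.mem_ker]
    show iso (QuotientGroup.mk' Q x) = 1 ↔ _
    rw [map_eq_one_iff _ iso.injective]
    exact QuotientGroup.eq_one_iff x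
  have hQ : IsPGroup 2 π.ker := hker ▸ PSolv.isPGroup_pCore 2 X
  have hCQ := PSolv.centralizer_pCore_le_of_isPConstrained hc hO
  let Φ := sqs π
  have hΦQ : Φ ≤ π.ker := sqs_le π
  -- the action on the Frattini quotient is faithful
  obtain ⟨r, q0, hq0, hr⟩ : ∃ r, ∃ q ∈ π.ker, q⁻¹ * (r * q * r⁻¹) ∉ Φ := by
    obtain ⟨t, ht⟩ := exists_prime_orderOf_dvd_card' (G := L) 3 (by rw [hL]; norm_num)
    obtain ⟨r0, rfl⟩ := hπ t
    have h3 : r0 ^ 3 ∈ π.ker := by rw [MonoidHom.mem_ker, map_pow, ← ht, pow_orderOf_eq_one]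
    obtain ⟨k, hk⟩ := hQ ⟨_, h3⟩
    set r := r0 ^ 2 ^ k with hr
    have hr3 : r ^ 3 = 1 := by
      rw [hr, ← pow_mul, mul_comm, pow_mul]; exact congrArg Subtype.val hk
    have hrQ : r ∉ π.ker := by
      rw [MonoidHom.mem_ker, hr, map_pow]
      intro h
      have h1 := orderOf_dvd_of_pow_eq_one h
      rw [ht] at h1
      have := Nat.prime_three.dvd_of_dvd_pow h1
      norm_num at this
    have hΦfr : Φ ≤ (frattini ↥π.ker).map π.ker.subtype := (Subgroup.closure_le _).2 (by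
      rintro x ⟨q, hq, rfl⟩
      exact ⟨_, PGroup.pow_mem_frattini hQ ⟨q, hq⟩, by simp [sq]⟩)
    refine ⟨r, ?_⟩
    by_contra hno
    push Not at hno
    apply hrQ
    rw [hker]
    refine hCQ (Subgroup.mem_centralizer_iff.2 fun w hw => ?_)
    have hcop : (orderOf r).Coprime 2 :=
      Nat.Coprime.coprime_dvd_left (orderOf_dvd_of_pow_eq_one hr3) (by norm_num)
    exact (PGroup.commute_of_coprime_of_frattini hQ hcop
      (by rw [Subgroup.normalizer_eq_top_iff.2 inferInstance]; trivial)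
      (fun x hx => hΦfr (hno x hx)) w (hker.symm ▸ hw)).symm
  -- a layer for each normal subgroup between `below` and `Φ`
  have layer : ∀ (Ψ : Subgroup X) [Ψ.Normal], Ψ ≤ Φ → TwoAut.OrderFive.below π.ker Φ ≤ Ψ →
      ∃ C : Cfg L (X ⧸ Ψ), C.π.comp (QuotientGroup.mk' Ψ) = π ∧ C.A = Φ.map (QuotientGroup.mk' Ψ) := by
    intro Ψ _ hΨ hbel
    let π' : X ⧸ Ψ →* L := QuotientGroup.lift Ψ π (hΨ.trans hΦQ)
    have hcomp : π = π'.comp (QuotientGroup.mk' Ψ) := MonoidHom.ext fun x => rfl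
    have hs : sqs π' = Φ.map (QuotientGroup.mk' Ψ) :=
      sqs_map π _ (QuotientGroup.mk'_surjective Ψ) π' hcomp
    refine ⟨mkCfg π' (fun l => by obtain ⟨x, rfl⟩ := hπ l; exact ⟨QuotientGroup.mk' Ψ x, rfl⟩) ?_ ?_ ?_
      ⟨QuotientGroup.mk' Ψ r, QuotientGroup.mk' Ψ q0, hq0, ?_⟩, hcomp.symm, hs⟩
    · rintro ⟨x, hx⟩
      obtain ⟨g, rfl⟩ := QuotientGroup.mk'_surjective Ψ x
      obtain ⟨k, hk⟩ := hQ ⟨g, hx⟩
      exact ⟨k, Subtype.ext (by
        show (QuotientGroup.mk' Ψ g) ^ 2 ^ k = 1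
        rw [← map_pow, show g ^ 2 ^ k = 1 from congrArg Subtype.val hk, map_one])⟩
    · rw [hs]
      rintro _ ⟨a, ha, rfl⟩
      rw [← map_mul]
      exact (QuotientGroup.eq_one_iff _).2 (hbel (Subgroup.subset_closure (.inl ⟨a, ha, rfl⟩)))
    · rw [hs]
      rintro _ ⟨a, ha, rfl⟩ x hx
      obtain ⟨g, rfl⟩ := QuotientGroup.mk'_surjective Ψ x
      refine Eq.symm ?_
      rw [← commutatorElement_eq_one_iff_mul_comm, ← map_commutatorElement]
      exact (QuotientGroup.eq_one_iff _).2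
        (hbel (Subgroup.subset_closure (.inr ⟨g, hx, a, ha, rfl⟩)))
    · rw [hs, ← map_inv, ← map_inv, ← map_mul, ← map_mul, ← map_mul, ← Subgroup.mem_comap,
        Subgroup.comap_map_eq_self (by rw [QuotientGroup.ker_mk']; exact hΨ)]
      exact hr
  let Ψ1 := TwoAut.OrderFive.below π.ker Φ
  have hΨ1Φ : Ψ1 ≤ Φ := TwoAut.OrderFive.below_le
  obtain ⟨C1, hC1π, hC1A⟩ := layer Ψ1 hΨ1Φ le_rfl
  have h41 : SectionalPRankLE 2 4 (X ⧸ Ψ1) :=
    TwoAut.OrderFive.sectional_of_surjective _ (QuotientGroup.mk'_surjective Ψ1) h4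
  -- there is no second layer
  have hΨ1 : Ψ1 = ⊥ := by
    rcases C1.shape hL h41 with hbot | ⟨H, h16, hB, hq, hA⟩
    · have hΦ : Φ ≤ Ψ1 := by
        rw [hC1A, Subgroup.map_eq_bot_iff, QuotientGroup.ker_mk'] at hbot
        exact hbot
      by_contra hne
      have hΦne : Φ ≠ ⊥ := fun e => hne (le_bot_iff.1 (e ▸ hΨ1Φ))
      exact TwoAut.OrderFive.below_lt hQ hΦQ hΦne (le_antisymm hΨ1Φ hΦ)
    · let Ψ2 := TwoAut.OrderFive.below π.ker Ψ1
      have h21 : Ψ2 ≤ Ψ1 := TwoAut.OrderFive.below_le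
      let p : X →* X ⧸ Ψ2 := QuotientGroup.mk' Ψ2
      let f : X ⧸ Ψ2 →* X ⧸ Ψ1 := QuotientGroup.map Ψ2 Ψ1 (MonoidHom.id X) h21
      have hfp : ∀ x, f (p x) = QuotientGroup.mk' Ψ1 x := fun x => rfl
      have hp : Function.Surjective p := QuotientGroup.mk'_surjective Ψ2
      have hfker : ∀ x, p x ∈ f.ker ↔ x ∈ Ψ1 := fun x => QuotientGroup.eq_one_iff x
      have hπ2 : ∀ x, C1.π (f (p x)) = π x := fun x => DFunLike.congr_fun hC1π x
      have hbot := no_long hL (TwoAut.OrderFive.sectional_of_surjective p hp h4) f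
        (fun y => by obtain ⟨x, rfl⟩ := QuotientGroup.mk'_surjective Ψ1 y; exact ⟨p x, rfl⟩) C1
        (by
          rintro ⟨y, hy⟩
          obtain ⟨x, rfl⟩ := hp y
          obtain ⟨k, hk⟩ := hQ ⟨x, (hπ2 x).symm.trans hy⟩
          exact ⟨k, Subtype.ext (by
            show (p x) ^ 2 ^ k = 1
            rw [← map_pow, show x ^ 2 ^ k = 1 from congrArg Subtype.val hk, map_one])⟩)
        (by
          intro z hz q hq
          obtain ⟨z, rfl⟩ := hp z
          obtain ⟨q, rfl⟩ := hp q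
          refine Eq.symm ?_
          rw [← commutatorElement_eq_one_iff_mul_comm, ← map_commutatorElement]
          exact (QuotientGroup.eq_one_iff _).2
            (Subgroup.subset_closure (.inr ⟨q, (hπ2 q).symm.trans hq, z, (hfker z).1 hz, rfl⟩)))
        (by
          intro z hz
          obtain ⟨z, rfl⟩ := hp z
          rw [← map_mul]
          exact (QuotientGroup.eq_one_iff _).2
            (Subgroup.subset_closure (.inl ⟨z, (hfker z).1 hz, rfl⟩)))
        (by
          intro z hz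
          obtain ⟨z, rfl⟩ := hp z
          have h1 : p z ∈ Ψ1.map p := ⟨z, (hfker z).1 hz, rfl⟩
          refine (Subgroup.map_le_iff_le_comap.2 ?_ : Ψ1.map p ≤ _) h1
          refine (Subgroup.closure_le _).2 ?_
          rintro x (⟨a, ha, rfl⟩ | ⟨q, hq, a, ha, rfl⟩) <;>
            refine Subgroup.subset_closure ?_
          · exact .inl ⟨p a, by rw [hfp, hC1A]; exact ⟨a, ha, rfl⟩, map_mul p a a⟩
          · exact .inr ⟨p q, (hπ2 q).trans hq, p a, by rw [hfp, hC1A]; exact ⟨a, ha, rfl⟩,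
              map_commutatorElement p q a⟩)
        H h16 hB hq hA
      by_contra hne
      refine TwoAut.OrderFive.below_lt hQ (hΨ1Φ.trans hΦQ) hne (le_antisymm h21 fun x hx => ?_)
      have : p x ∈ f.ker := (hfker x).2 hx
      rw [hbot, Subgroup.mem_bot] at this
      exact (QuotientGroup.eq_one_iff x).1 this
  -- the layer of `X` itself
  have hA2 : ∀ a ∈ Φ, a * a = 1 := fun a ha =>
    Subgroup.mem_bot.1 (hΨ1 ▸ Subgroup.subset_closure (.inl ⟨a, ha, rfl⟩) : a * a ∈ (⊥ : Subgroup X))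
  have hAc : ∀ a ∈ Φ, ∀ q ∈ π.ker, a * q = q * a := fun a ha q hq =>
    (commutatorElement_eq_one_iff_mul_comm.1 (Subgroup.mem_bot.1
      (hΨ1 ▸ Subgroup.subset_closure (.inr ⟨q, hq, a, ha, rfl⟩) : ⁅q, a⁆ ∈ (⊥ : Subgroup X)))).symm
  let C0 : Cfg L X := mkCfg π hπ hQ hA2 hAc ⟨r, q0, hq0, hr⟩
  rcases C0.shape hL h4 with hbot | ⟨H, h16, hB, hq, hA⟩
  · left
    have hone : ∀ q ∈ Q, q * q = 1 := fun q hq => by
      have := C0.sq q (hker.symm ▸ hq)
      rw [hbot, Subgroup.mem_bot] at this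
      exact this
    have hi : ∀ q ∈ Q, q⁻¹ = q := fun q hq => inv_eq_of_mul_eq_one_right (hone q hq)
    refine ⟨⟨⟨⟨fun x y => Subtype.ext ?_⟩⟩, fun q hq => by rw [sq]; exact hone q hq⟩, ?_⟩
    · show (x : X) * y = y * x
      rw [← hi _ (Q.mul_mem x.2 y.2), mul_inv_rev, hi _ x.2, hi _ y.2]
    · have hcQ := C0.card_Q hbot
      rw [show Nat.card C0.Q = Nat.card Q from congrArg (fun S : Subgroup X => Nat.card S) hker] at hcQ
      rw [hcQ]
      exact card_cases hL C0.ρ C0.V2 C0.ρ_nt (C0.card_V_le h4)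
  · right
    obtain ⟨e⟩ := C0.exists_mulEquiv H h16 hB hq hA
    exact ⟨(MulEquiv.subgroupCongr hker.symm).trans e⟩

end Cfsg.Agent.RadicalLThree
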