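import Cfsg.Agent.RadicalLThree.NotFree
import Cfsg.Agent.TwoAut.RadicalAFive

/-!
# The shape of the first layer
-/

set_option autoImplicit false
set_option linter.all false

namespace Cfsg.Agent.RadicalLThree

universe u v

open scoped commutatorElement

variable {L : Type v} [Group L] {Y : Type u} [Group Y] (C : Cfg L Y)

/-- The layer modulo a normal subgroup of it. -/
def Cfg.quot (Ψ : Subgroup Y) [Ψ.Normal] (hΨ : Ψ ≤ C.A) : Cfg L (Y ⧸ Ψ) where
  π := QuotientGroup.lift Ψ C.π (hΨ.trans C.le)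
  hπ l := by obtain ⟨g, rfl⟩ := C.hπ l; exact ⟨QuotientGroup.mk' Ψ g, rfl⟩
  hQ := fun ⟨x, hx⟩ => by
    obtain ⟨g, rfl⟩ := QuotientGroup.mk'_surjective Ψ x
    obtain ⟨k, hk⟩ := C.hQ ⟨g, hx⟩
    exact ⟨k, Subtype.ext (by
      show (QuotientGroup.mk' Ψ g) ^ 2 ^ k = 1
      rw [← map_pow, show g ^ 2 ^ k = 1 from congrArg Subtype.val hk, map_one])⟩
  A := C.A.map (QuotientGroup.mk' Ψ)
  An := C.An.map _ (QuotientGroup.mk'_surjective Ψ)
  le := by rintro _ ⟨a, ha, rfl⟩; exact C.le ha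
  sq := fun x hx => by
    obtain ⟨g, rfl⟩ := QuotientGroup.mk'_surjective Ψ x
    exact ⟨g * g, C.sq g hx, map_mul _ g g⟩
  gen := by
    refine (Subgroup.map_mono C.gen).trans ?_
    rw [MonoidHom.map_closure]
    refine Subgroup.closure_mono ?_
    rintro _ ⟨_, ⟨q, hq, rfl⟩, rfl⟩
    exact ⟨_, hq, map_mul _ q q⟩
  A2 := by rintro _ ⟨a, ha, rfl⟩; rw [← map_mul, C.A2 a ha, map_one]
  Ac := by
    rintro _ ⟨a, ha, rfl⟩ x hx
    obtain ⟨g, rfl⟩ := QuotientGroup.mk'_surjective Ψ x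
    rw [← map_mul, C.Ac a ha g hx, map_mul]
  nt := by
    obtain ⟨g, q, hq, hn⟩ := C.nt
    refine ⟨QuotientGroup.mk' Ψ g, QuotientGroup.mk' Ψ q, hq, fun h => hn ?_⟩
    rw [← map_inv, ← map_inv, ← map_mul, ← map_mul, ← map_mul, ← Subgroup.mem_comap,
      Subgroup.comap_map_eq_self (by rw [QuotientGroup.ker_mk']; exact hΨ)] at h
    exact h

variable [Finite Y] [Finite L] [IsSimpleGroup L] (hL : Nat.card L = 168)
  (h4 : SectionalPRankLE 2 4 Y)

include hL h4

/-- The quotient group centralises the layer. -/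
theorem Cfg.centralised : ∀ g : Y, ∀ a ∈ C.A, g * a * g⁻¹ = a := by
  by_contra hne
  let S : Set (Subgroup Y) :=
    {Ψ | Ψ.Normal ∧ Ψ ≤ C.A ∧ ∃ g, ∃ a ∈ C.A, g * a * g⁻¹ * a⁻¹ ∉ Ψ}
  have hS : S.Nonempty := by
    refine ⟨⊥, inferInstance, bot_le, ?_⟩
    push Not at hne
    obtain ⟨g, a, ha, h⟩ := hne
    exact ⟨g, a, ha, fun e => h (mul_inv_eq_one.1 (Subgroup.mem_bot.1 e))⟩
  obtain ⟨Ψ, ⟨hΨn, hΨA, g, a, ha, hga⟩, hmax⟩ :=
    S.exists_max_image (fun Ψ => Nat.card Ψ) (Set.toFinite S) hS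
  let p : Y →* Y ⧸ Ψ := QuotientGroup.mk' Ψ
  have hp : Function.Surjective p := QuotientGroup.mk'_surjective Ψ
  have p1 : ∀ y, p y = 1 ↔ y ∈ Ψ := fun y => QuotientGroup.eq_one_iff y
  have h4' : SectionalPRankLE 2 4 (Y ⧸ Ψ) := TwoAut.OrderFive.sectional_of_surjective p hp h4
  set C' := C.quot Ψ hΨA with hC'
  refine C'.not_free hL h4' ⟨C'.Aexp, C'.card_A_le h4', ?_, ?_⟩
  · refine ⟨C'.π (p g), el C'.A (g := p a) ⟨a, ha, rfl⟩, fun e => hga ?_⟩
    rw [C'.σ_apply] at e
    have := congrArg (fun x : Additive C'.A => (x.toMul : Y ⧸ Ψ)) e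
    simp only [act_val] at this
    change p g * p a * (p g)⁻¹ = p a at this
    rw [← p1, map_mul, map_mul, map_mul, map_inv, map_inv, this, mul_inv_cancel]
  · intro b hb
    obtain ⟨b0, hb0, hbb⟩ := b.toMul.2
    by_contra hb1
    have hcen : p b0 ∈ Subgroup.center (Y ⧸ Ψ) := Subgroup.mem_center_iff.2 fun x => by
      have := congrArg (fun x : Additive C'.A => (x.toMul : Y ⧸ Ψ)) (hb (C'.π x))
      rw [C'.σ_apply] at this
      simp only [act_val, ← hbb] at this
      exact mul_inv_eq_iff_eq_mul.1 this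
    let Ψ' : Subgroup Y := (Subgroup.zpowers (p b0)).comap p
    haveI hzn : (Subgroup.zpowers (p b0)).Normal := ⟨fun x hx y => by
      rw [show y * x * y⁻¹ = x by
        rw [Subgroup.mem_center_iff.1 ((Subgroup.zpowers_le.2 hcen) hx) y, mul_inv_cancel_right]]
      exact hx⟩
    have hle : Ψ ≤ Ψ' := fun y hy => by
      rw [Subgroup.mem_comap, (p1 y).2 hy]; exact one_mem _
    have hΨ'A : Ψ' ≤ C.A := fun y hy => by
      rw [Subgroup.mem_comap] at hy
      have h1 : p y ∈ C.A.map p := (Subgroup.zpowers_le.2 (show p b0 ∈ C.A.map p from ⟨b0, hb0, rfl⟩)) hy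
      rwa [← Subgroup.mem_comap,
        Subgroup.comap_map_eq_self (by rw [QuotientGroup.ker_mk']; exact hΨA)] at h1
    have hlt : Nat.card Ψ < Nat.card Ψ' := by
      refine lt_of_le_of_ne (Subgroup.card_le_of_le hle) fun e => hb1 ?_
      have := Subgroup.eq_of_le_of_card_ge hle e.ge
      have hb0' : b0 ∈ Ψ := this ▸ Subgroup.mem_comap.2 (Subgroup.mem_zpowers _)
      apply ext_val
      rw [← hbb]
      exact (p1 b0).2 hb0'
    have hno : ∀ g, ∀ a ∈ C.A, g * a * g⁻¹ * a⁻¹ ∈ Ψ' := by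
      intro g' a' ha'
      by_contra h
      exact absurd (hmax Ψ' ⟨inferInstance, hΨ'A, g', a', ha', h⟩) (not_le.2 hlt)
    have htr : ∀ l x, C'.σ l x = x := by
      refine trivial_of_series C'.σ hL (D := AddSubgroup.zmultiples b) ?_ ?_
      · rintro l _ ⟨n, rfl⟩
        exact (map_zsmul (C'.σ l : _ →+ _) n b).trans (congrArg (n • ·) (hb l))
      · intro l x
        obtain ⟨y', rfl⟩ := C'.hπ l
        obtain ⟨y, rfl⟩ := hp y'
        obtain ⟨a', ha', hxa⟩ := x.toMul.2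
        obtain ⟨n, hn⟩ := Subgroup.mem_zpowers_iff.1 (hno y a' ha')
        refine ⟨n, ext_val C'.A ?_⟩
        show ((b.toMul ^ n : C'.A) : Y ⧸ Ψ) = _
        rw [Subgroup.coe_zpow, ← hbb, show (p b0) ^ n = p (y * a' * y⁻¹ * a'⁻¹) from hn, C'.σ_apply,
          toMul_sub, div_eq_mul_inv, Subgroup.coe_mul, Subgroup.coe_inv, act_val, ← hxa]
        simp only [map_mul, map_inv]
        rfl
    have e := htr (C'.π (p g)) (el C'.A (g := p a) ⟨a, ha, rfl⟩)
    rw [C'.σ_apply] at e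
    have := congrArg (fun x : Additive C'.A => (x.toMul : Y ⧸ Ψ)) e
    simp only [act_val] at this
    change p g * p a * (p g)⁻¹ = p a at this
    exact hga (by rw [← p1, map_mul, map_mul, map_mul, map_inv, map_inv, this, mul_inv_cancel])

theorem Cfg.σ_trivial (l : L) (a : Additive C.A) : C.σ l a = a := by
  obtain ⟨g, rfl⟩ := C.hπ l
  rw [C.σ_apply]
  apply ext_val
  rw [act_val]
  exact C.centralised hL h4 g _ a.toMul.2

/-- The first layer is trivial, or of order two over an elementary subgroup of index two. -/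
theorem Cfg.shape :
    C.A = ⊥ ∨ ∃ H : Hyp C.ρ, Nat.card C.V = 16 ∧ (∀ x y, C.B x y = 0) ∧
      (∀ v, C.q v = 0 ↔ v ∈ H.D) ∧ Nat.card C.A = 2 := by
  classical
  have inv : ∀ l v, C.q (C.ρ l v) = C.q v := fun l v => by rw [C.q_equiv, C.σ_trivial hL h4]
  rcases card_cases hL C.ρ C.V2 C.ρ_nt (C.card_V_le h4) with h8 | h16
  · left
    obtain ⟨d⟩ := exists_nat3 hL C.ρ h8 C.V2 C.ρ_nt
    exact C.A_eq_bot (eq_zero_of_trivial d C.Aexp C.q C.q_zero inv C.q_cubic)
  rcases isEmpty_or_nonempty (Hyp C.ρ) with hno | ⟨⟨H⟩⟩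
  · left
    obtain ⟨z, hz, hfix⟩ := exists_fixed_of_no_hyp hL C.ρ C.V2 h16 C.ρ_nt hno
    obtain ⟨d⟩ := quot_nat C.ρ z hfix hL C.V2 h16 C.ρ_nt hz
    let p : C.V →+ C.V ⧸ AddSubgroup.zmultiples z := QuotientAddGroup.mk' _
    have hp : Function.Surjective p := QuotientAddGroup.mk'_surjective _
    have pz : p z = 0 := (QuotientAddGroup.eq_zero_iff z).2 (AddSubgroup.mem_zmultiples z)
    let χ : C.V ⧸ AddSubgroup.zmultiples z →+ Additive C.A :=
      QuotientAddGroup.lift _ (AddMonoidHom.mk' (C.B z) (C.B_add_right z))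
        (AddSubgroup.zmultiples_le.2 (C.B_self z))
    have hχ : ∀ n, χ n = 0 := eq_zero_of_trivial d C.Aexp χ (map_zero χ)
      (fun l n => by
        obtain ⟨x, rfl⟩ := hp n
        show C.B z (C.ρ l x) = C.B z x
        conv_lhs => rw [← hfix l, C.B_equiv, C.σ_trivial hL h4])
      (fun x y t => by simp only [map_add]; abel)
    have hqadd : ∀ x, C.q (x + z) = C.q x + C.q z := fun x => by
      rw [C.q_add, C.B_comm, show C.B z x = χ (p x) from rfl, hχ, add_zero]
    obtain ⟨n, hn⟩ : ∃ n : C.V ⧸ AddSubgroup.zmultiples z, n ≠ 0 :=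
      ⟨d.e.symm ![1, 0, 0], fun e => by
        rw [d.e.symm_apply_eq, map_zero] at e; exact absurd e (by decide)⟩
    obtain ⟨x, rfl⟩ := hp n
    obtain ⟨g, hg⟩ := exists_flip C.ρ z hfix hL C.V2 h16 C.ρ_nt hz hno (x := x)
      (fun e => hn (by rw [e, map_zero])) (fun e => hn (by rw [e, pz]))
    have hs : C.q z = 0 := by
      have := inv g x
      rw [hg, hqadd] at this
      exact add_eq_left.1 this
    let ψ : C.V ⧸ AddSubgroup.zmultiples z → Additive C.A := fun n => C.q n.out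
    have hψp : ∀ x, ψ (p x) = C.q x := by
      intro x
      show C.q (p x).out = _
      have e0 : p ((p x).out) = p x := QuotientAddGroup.out_eq' (p x)
      rcases (mem_zmultiples_iff_of_two C.V2).1 (QuotientAddGroup.eq.1 e0.symm) with e | e
      · rw [← neg_add_eq_zero.1 e]
      · rw [show (p x).out = x + z from neg_add_eq_iff_eq_add.1 e, hqadd, hs, add_zero]
    refine C.A_eq_bot fun v => ?_
    rw [← hψp]
    refine eq_zero_of_trivial d C.Aexp ψ (by rw [← map_zero p, hψp, C.q_zero]) ?_ ?_ _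
    · intro l n
      obtain ⟨x, rfl⟩ := hp n
      show ψ (p (C.ρ l x)) = _
      rw [hψp, hψp, inv]
    · intro a b c
      obtain ⟨x, rfl⟩ := hp a
      obtain ⟨y, rfl⟩ := hp b
      obtain ⟨t, rfl⟩ := hp c
      simp only [← map_add p, hψp]
      exact C.q_cubic x y t
  obtain ⟨d⟩ := H.exists_nat3 hL C.ρ C.V2 h16 C.ρ_nt
  have hidx : H.D.index = 2 := by
    have := H.D.card_mul_index
    rw [H.card, h16] at this; omega
  have hsum : ∀ a b, a + b ∈ H.D ↔ (a ∈ H.D ↔ b ∈ H.D) := fun a b =>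
    AddSubgroup.add_mem_iff_of_index_two hidx
  have hD0 : ∀ v ∈ H.D, C.q v = 0 := by
    have := eq_zero_of_trivial d C.Aexp (fun v : H.D => C.q v) C.q_zero
      (fun l v => inv l v) (fun x y z => C.q_cubic x y z)
    exact fun v hv => this ⟨v, hv⟩
  obtain ⟨x, hx⟩ : ∃ x, x ∉ H.D := by
    by_contra h
    push Not at h
    have : H.D = ⊤ := eq_top_iff.2 fun v _ => h v
    rw [this, AddSubgroup.index_top] at hidx
    omega
  have hout : ∀ v, v ∉ H.D → C.q v = C.q x := by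
    rcases H.outside hL C.ρ C.V2 h16 hx with ⟨c, hc, hcfix⟩ | ⟨h8, -⟩
    · have hχ := eq_zero_of_trivial d C.Aexp (fun v : H.D => C.B c v)
        (by
          show C.q (c + 0) + C.q c + C.q 0 = 0
          rw [add_zero, C.q_zero, add_zero, C.Aexp])
        (fun l v => by
          show C.B c (C.ρ l v) = C.B c v
          conv_lhs => rw [← hcfix l, C.B_equiv, C.σ_trivial hL h4])
        (fun x y z => by simp only [AddSubgroup.coe_add, C.B_add_right]; abel)
      have hq : ∀ v, v ∉ H.D → C.q v = C.q c := fun v hv => by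
        have hm : v + c ∈ H.D := (hsum v c).2 (iff_of_false hv hc)
        rw [show v = c + (v + c) by rw [add_left_comm, C.V2, add_zero], C.q_add, hD0 _ hm,
          show C.B c (v + c) = 0 from hχ ⟨_, hm⟩, add_zero, add_zero]
      exact fun v hv => by rw [hq v hv, hq x hx]
    · intro v hv
      have hsub : orb C.ρ x ⊆ (H.D : Set C.V)ᶜ := by
        rintro _ ⟨g, rfl⟩ hg
        have := H.inv g⁻¹ _ hg
        rw [rep_inv] at this
        exact hx this
      have hc : ((H.D : Set C.V)ᶜ).ncard ≤ (orb C.ρ x).ncard := by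
        rw [Set.ncard_compl, ← Nat.card_coe_set_eq (H.D : Set C.V),
          show Nat.card (H.D : Set C.V) = 8 from H.card, h16, ← Nat.card_coe_set_eq, h8]
      obtain ⟨g, rfl⟩ : v ∈ orb C.ρ x := by
        rw [Set.eq_of_subset_of_ncard_le hsub hc]; exact hv
      exact inv g x
  by_cases hs : C.q x = 0
  · left
    refine C.A_eq_bot fun v => ?_
    by_cases hv : v ∈ H.D
    · exact hD0 v hv
    · rw [hout v hv, hs]
  right
  refine ⟨H, h16, fun a b => ?_, fun v => ⟨fun h => of_not_not fun hv => hs (hout v hv ▸ h), hD0 v⟩, ?_⟩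
  · rw [Cfg.B]
    by_cases ha : a ∈ H.D <;> by_cases hb : b ∈ H.D
    · rw [hD0 _ ha, hD0 _ hb, hD0 _ (H.D.add_mem ha hb), add_zero, add_zero]
    · rw [hD0 _ ha, hout _ hb, hout _ (fun h => hb (((hsum a b).1 h).1 ha)), add_zero, C.Aexp]
    · rw [hout _ ha, hD0 _ hb, hout _ (fun h => ha (((hsum a b).1 h).2 hb)), C.Aexp, add_zero]
    · rw [hout _ ha, hout _ hb, hD0 _ ((hsum a b).2 (iff_of_false ha hb)), zero_add, C.Aexp]
  · have hK := C.A_le_image (AddSubgroup.zmultiples (C.q x)) fun v => by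
      by_cases hv : v ∈ H.D
      · rw [hD0 v hv]; exact zero_mem _
      · rw [hout v hv]; exact AddSubgroup.mem_zmultiples _
    have htop : AddSubgroup.zmultiples (C.q x) = ⊤ := eq_top_iff.2 fun a _ => hK a
    have hcard : Nat.card (AddSubgroup.zmultiples (C.q x)) = 2 := by
      rw [Nat.card_zmultiples]
      exact addOrderOf_eq_prime (by rw [two_nsmul]; exact C.Aexp _) hs
    rw [htop, AddSubgroup.card_top] at hcard
    exact hcard

end Cfsg.Agent.RadicalLThree
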